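import Mathlib
import Cfsg.Agent.Class.MinDegU.Four

/-!
Minimal degree of four-dimensional unitary groups: the global argument.
-/

set_option autoImplicit false
set_option linter.unusedSectionVars false

namespace Cfsg.Agent.Class.MinDegU

open Module Cfsg.Agent.Class.Max Cfsg.Agent.Class.Max.Fm Cfsg.Agent.Class.MinDegO

variable {F V : Type*} [Field F] [AddCommGroup V] [Module F V]
variable {Φ : Fm F V} {H : Subgroup (V ≃ₗ[F] V)} {e f u u' : V}
variable {q : ℕ} [U.UF F q] [Finite F] [Finite V] [FiniteDimensional F V]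

variable (Φ H) in
/-- Centres of transvection groups of `H`. -/
def AA : Set V := {v | v ≠ 0 ∧ Φ.Q v = 0 ∧ InT Φ H v}

variable (Φ H) in
/-- Centres of transvection groups with further elements in the unipotent radical. -/
def Strong (z : V) : Prop :=
  z ∈ AA Φ H ∧ ∃ y, y ∉ Submodule.span F {z} ∧ ∀ r : F, Φ.σ r = r → Φ.InA H z (r • y)

theorem Hm.orbit_add (h : Hm Φ q) (hH : H ≤ Φ.EG) (he : Φ.Q e = 0) (he0 : e ≠ 0)
    (hT : ¬ InT Φ H e) : (Px Φ e).relIndex H * (q ^ 2 - 1) + (AA Φ H).ncard ≤ ns Φ := by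
  have hI := hH.trans Φ.EG_le_Iso
  have : Finite (Submodule F V) := Finite.of_injective _ SetLike.coe_injective
  have h1 := relIndex_le_ncard (Px Φ e) H (fun g => Submodule.span F {g e})
    ((fun v => Submodule.span F {v}) '' {v | v ≠ 0 ∧ Φ.Q v = 0 ∧ ¬ InT Φ H v})
    (fun g hg => ⟨g e, ⟨by simpa using he0, by rw [Iso.Q (hI hg), he], fun c => hT (by
      simpa using c.conj (H.inv_mem hg) (hI (H.inv_mem hg)))⟩, rfl⟩) fun g hg g' hg' e1 => by
      obtain ⟨t, ht⟩ := Submodule.mem_span_singleton.1 (e1.ge (Submodule.mem_span_singleton_self _))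
      exact mem_Px.2 ⟨⟨t, by rw [mul_app, ← ht, map_smul, inv_app_app]⟩,
        hH (H.mul_mem (H.inv_mem hg) hg')⟩
  have h2 := mul_le_ncard_of_fiber {v | v ≠ 0 ∧ Φ.Q v = 0 ∧ ¬ InT Φ H v}
    ((fun v => Submodule.span F {v}) '' {v | v ≠ 0 ∧ Φ.Q v = 0 ∧ ¬ InT Φ H v})
    (fun v => Submodule.span F {v}) (q ^ 2 - 1) (by
      rintro _ ⟨v, ⟨a1, a2, a3⟩, rfl⟩
      rw [← h.card_F, ← ncard_ne_zero_field]
      exact Set.ncard_le_ncard_of_injOn (fun t => t • v) (fun t ht => ⟨⟨smul_ne_zero ht a1,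
        Φ.Q_smul_zero a2 t, by rwa [inT_smul_iff ht]⟩,
        Submodule.span_singleton_smul_eq (IsUnit.mk0 t ht) v⟩)
        fun a _ b _ hab => smul_left_injective F a1 hab)
  refine (Nat.add_le_add_right ((Nat.mul_le_mul_right _ h1).trans h2) _).trans ?_
  rw [← Set.ncard_union_eq (Set.disjoint_left.2 fun v a b => a.2.2 b.2.2)]
  exact Set.ncard_le_ncard fun v hv => hv.elim (fun a => ⟨a.1, a.2.1⟩) fun a => ⟨a.1, a.2.1⟩

theorem Strong.perp {z a : V} (hz : Strong Φ H z) (h : Hm Φ q) (hH : H ≤ Φ.Iso)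
    (hA : (AA Φ H).ncard < q ^ 4 - 1) (ha : a ∈ AA Φ H) : Φ.B z a = 0 := by
  by_contra h0
  obtain ⟨⟨z0, z1, z2⟩, y, y1, y2⟩ := hz
  choose! c hv hc using y2
  have h1 := mul_le_ncard_of_fiber {v | v ∈ AA Φ H ∧ Φ.B z v ≠ 0} {t | t ≠ 0} (Φ.B z) (q * q)
    fun t ht => by
      conv_lhs => rw [← h.ncard_fixed]; arg 2; rw [h.ncard_fixed, ← h.ncard_trace (map_zero _)]
      rw [← Set.ncard_prod]
      refine Set.ncard_le_ncard_of_injOn
        (fun x => (t / Φ.B z a) • Φ.ef z (x.1 • y) (c x.1 + x.2) a) (fun x hx => ?_)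
        fun x hx x' hx' e1 => ?_
      · have b1 : Φ.Valid z (x.1 • y) (c x.1 + x.2) := ⟨z1, (hv _ hx.1).perp, by
          rw [map_add, (hv _ hx.1).norm, h.π_eq, hx.2, add_zero]⟩
        obtain ⟨g, hg, e1⟩ := InA.hasE ⟨_, hv _ hx.1, hc _ hx.1⟩ z2 b1
        have b2 : Φ.B z ((t / Φ.B z a) • g a) = t := by
          rw [Φ.B_smul_right, e1, b1.B_ef, div_mul_cancel₀ _ h0]
        simp only [← e1]
        exact ⟨⟨⟨smul_ne_zero (div_ne_zero ht h0) (by simpa using ha.1),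
          Φ.Q_smul_zero (by rw [Iso.Q (hH hg), ha.2.1]) _, (ha.2.2.conj hg (hH hg)).smul _⟩,
          fun c => ht (b2.symm.trans c)⟩, b2⟩
      · have e2 := smul_right_injective V (div_ne_zero ht h0) e1
        rw [h.ef_eq, h.ef_eq] at e2
        have e3 := LinearIndependent.pair_iff.1 (li_pair z0 y1) _ (Φ.B z a * (x.1 - x'.1))
          (show ((Φ.B (x'.1 • y) a + (c x'.1 + x'.2) * Φ.B z a) -
            (Φ.B (x.1 • y) a + (c x.1 + x.2) * Φ.B z a)) • z + _ = 0 by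
              linear_combination (norm := module) e2)
        have e4 := sub_eq_zero.1 ((mul_eq_zero.1 e3.2).resolve_left h0)
        refine Prod.ext e4 (mul_right_cancel₀ h0 ?_)
        have e5 := e3.1
        rw [e4] at e5
        linear_combination -e5
  have h2 := Set.ncard_le_ncard (s := {v | v ∈ AA Φ H ∧ Φ.B z v ≠ 0} ∪
      (Submodule.span F {z} : Set V) \ {0}) (t := AA Φ H) (by
    rintro v (a1 | ⟨a1, a2⟩)
    · exact a1.1
    · obtain ⟨t, rfl⟩ := Submodule.mem_span_singleton.1 a1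
      exact ⟨a2, Φ.Q_smul_zero z1 t, z2.smul t⟩)
  rw [Set.ncard_union_eq (Set.disjoint_left.2 fun v a b => by
      obtain ⟨t, rfl⟩ := Submodule.mem_span_singleton.1 b.1
      exact a.2 (by simp [Φ.B_self z1])),
    Set.ncard_sdiff_singleton_of_mem (Submodule.zero_mem _), h.ncard_span z0] at h2
  rw [ncard_ne_zero_field, h.card_F, ← sq] at h1
  have h3 : 1 ≤ q ^ 2 := Nat.one_le_pow _ _ (by have := h.two_le; omega)
  rw [show q ^ 4 = q ^ 2 * q ^ 2 by ring, mul_self_sub] at hA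
  nlinarith

theorem S4.num (s : S4 Φ q H e f) : Nat.card (L0 Φ H e) = 1 ∧
    Nat.card (UU Φ H e f) = q ^ 2 ∧ q ^ 3 * (q + 1) ≤ H.relIndex (Px Φ e) := by
  obtain ⟨u, hu, u', r⟩ := s.exists_fr
  by_cases hb : ∀ v ∈ UU Φ H e f, Φ.B u v = 0
  · exact s.b_num r hu hb
  · push Not at hb
    exact (s.c_num r hu hb).2

section Main

variable (h : Hm Φ q) (h4 : finrank F V = 4) (hH : H ≤ Φ.EG)
  (hm : H.relIndex Φ.EG < (q + 1) * (q ^ 3 + 1))
include h h4 hH hm

theorem s4 (p : HP Φ e f) (hT : ¬ InT Φ H e) : S4 Φ q H e f :=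
  { h := h, p := p, hH := hH, hT := hT, h3 := by omega, hd := by have := p.finrank; omega,
    hm := relIndex_Px_le.trans_lt hm }

theorem inT_of_hasE {y : V} (h1 : Φ.Q y = 0) (h2 : y ≠ 0) {c : F} (h0 : c ≠ 0)
    (hc : Φ.σ c = -c) (h3 : Φ.HasE H y 0 c) : y ∈ AA Φ H := by
  refine ⟨h2, h1, by_contra fun hT => h0 ?_⟩
  obtain ⟨f, p⟩ := h.exists_hp h1 h2
  have := (mem_L0 h1).2 ⟨h.lam_iff.2 hc, h3⟩
  rwa [AddSubgroup.card_eq_one.1 (s4 h h4 hH hm p hT).num.1, AddSubgroup.mem_bot] at this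

theorem strong_of_b (s : S4 Φ q H e f) (r : Fr Φ e f u u') (hu : u ∈ UU Φ H e f)
    (hb : ∀ v ∈ UU Φ H e f, Φ.B u v = 0) : ∃ z, Strong Φ H z ∧ Φ.B z e = 0 := by
  obtain ⟨μ, δ, c, h0, hc, h1, h2⟩ := s.b_point r hu hb
  obtain ⟨β, b0, b1⟩ : ∃ β : F, β ≠ 0 ∧ Φ.σ β * Φ.σ δ = β * δ := by
    by_cases hδ : δ = 0
    · exact ⟨1, one_ne_zero, by simp [hδ]⟩
    · exact ⟨Φ.σ δ, Φ.σ_ne hδ, by rw [Φ.invol, mul_comm]⟩
  have c3 : Φ.B (u + (μ + δ) • e) e = 0 := by simp [r.ue, s.p.ee]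
  refine ⟨_, ⟨inT_of_hasE h h4 hH hm (r.Q_lift _) (r.lift_ne _) h0 hc h1, (-Φ.σ β) • e,
    not_mem_span_of_B (Φ := Φ) (v := f - Φ.σ (μ + δ) • u')
      (by simp [r.fu, r.u'e, s.p.hfe, r.p'.hfe, Φ.invol]) (by simp [r.u'e, s.p.hfe, b0]),
    fun t ht => ?_⟩, c3⟩
  obtain ⟨g, hg, e1⟩ := h2 (t * β)
  refine ⟨0, valid_zero (r.Q_lift _) (by simp only [Φ.B_smul_right, c3, mul_zero])
    (Φ.Q_smul_zero (Φ.Q_smul_zero s.p.he _) _), g, hg, fun v => ?_⟩
  rw [e1, h.ef_eq, h.ef_eq]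
  simp only [Φ.bsimp, ht]
  linear_combination (norm := module) (t * Φ.B e v * b1) • e

theorem AA_lt (p : HP Φ e f) (hT : ¬ InT Φ H e) :
    (AA Φ H).ncard < q ^ 4 - 1 ∧ (q = 2 → (AA Φ H).ncard = 0) := by
  have := finite_equiv (F := F) (V := V)
  have a1 := h.orbit_add hH p.he p.ne_zero hT
  have a2 := relIndex_mul_orbit hH e
  have a3 := relIndex_Px_sing (Φ := Φ) (by rw [h.d_eq]; omega) p.he p.ne_zero
  obtain ⟨b1, b2, b3⟩ := (s4 h h4 hH hm p hT).num
  have b4 := h.card_Q (H := H) p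
  have b5 : H.relIndex (Px Φ e) ≤ H.relIndex Φ.EG := relIndex_Px_le
  have b6 := relIndex_split H _ _ ((Qx_le_Sx (Φ := Φ) p.he p.ne_zero).trans Sx_le_Px)
    fun g hg u hu => conj_mem_Qx p.ne_zero hg hu
  rw [b1, b2, (s4 h h4 hH hm p hT).hd] at b4
  rw [h.ns_eq, h4, nI, if_pos (by decide)] at a1 a3
  rw [h.card_F] at a3
  generalize (Px Φ e).relIndex H = o at *
  generalize (Px Φ e).relIndex Φ.EG = N at *
  generalize H.relIndex Φ.EG = m at *
  generalize H.relIndex (Px Φ e) = k at *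
  generalize (AA Φ H).ncard = A at *
  refine ⟨?_, ?_⟩
  · by_contra hc
    have c0 : 0 < q ^ 4 - 1 := Nat.sub_pos_of_lt (Nat.one_lt_pow (by omega) h.two_le)
    have c1 : o * (q ^ 2 - 1) ≤ (q ^ 4 - 1) * q ^ 3 := by
      rw [show 4 - 1 = 3 from rfl, mul_add] at a1; omega
    have c2 : (q ^ 4 - 1) * q ^ 3 * ((q + 1) * (q ^ 3 + 1)) ≤ (q ^ 4 - 1) * q ^ 3 * m :=
      calc _ = q ^ 3 * (q + 1) * ((q ^ 4 - 1) * (q ^ (4 - 1) + 1)) := by ring
        _ ≤ k * ((q ^ 2 - 1) * N) := by rw [a3]; gcongr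
        _ = o * (q ^ 2 - 1) * m := by rw [mul_right_comm o, a2]; ring
        _ ≤ _ := by gcongr
    have := h.two_le
    exact absurd (Nat.le_of_mul_le_mul_left c2 (by positivity)) (not_le.2 hm)
  · rintro rfl
    generalize H.relIndex (Qx Φ e) = a at *
    obtain rfl : a = 8 := by omega
    obtain rfl : N = 45 := by omega
    have : k = 24 := by omega
    rw [this] at a2 b5
    interval_cases m <;> omega

omit hm in
theorem Hm.four (hne : ¬ Φ.EG ≤ H) : (q + 1) * (q ^ 3 + 1) ≤ H.relIndex Φ.EG := by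
  by_contra hm
  rw [not_le] at hm
  obtain ⟨e₀, b1, b2, b3⟩ : ∃ e, Φ.Q e = 0 ∧ e ≠ 0 ∧ ¬ InT Φ H e := by
    by_contra hc
    push Not at hc
    refine hne (h.tv (by omega) (by omega) H fun e c hv => ?_)
    have : Φ.π c = 0 := by rw [hv.norm, Φ.Q_zero]
    by_cases he : e = 0
    · rw [he]; exact inT_zero c this
    · exact hc e hv.sing he c this
  obtain ⟨f₀, p₀⟩ := h.exists_hp b1 b2
  obtain ⟨hA, hA2⟩ := AA_lt h h4 hH hm p₀ b3
  have key : ∀ x, Φ.Q x = 0 → x ≠ 0 → ¬ InT Φ H x → ∃ z, Strong Φ H z ∧ Φ.B z x = 0 :=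
    fun x c1 c2 c3 => by
      obtain ⟨f, p⟩ := h.exists_hp c1 c2
      have s := s4 h h4 hH hm p c3
      obtain ⟨u, hu, u', r⟩ := s.exists_fr
      by_cases hb : ∀ v ∈ UU Φ H x f, Φ.B u v = 0
      · exact strong_of_b h h4 hH hm s r hu hb
      push Not at hb
      have d1 := (Set.ncard_eq_zero (Set.toFinite _)).1 (hA2 (s.c_two r hu hb))
      exfalso
      rcases s.c_point r hu hb with ⟨y, d2, d3, d4⟩ | ⟨y, d2, d3, d4, d5, α, d6, d7⟩
      · refine d1.le (inT_of_hasE h h4 hH hm d2 d3 one_ne_zero ?_ d4)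
        rw [map_one]; linear_combination (s.c_num r hu hb).1
      obtain ⟨g, p'⟩ := h.exists_hp d2 d3
      have s' := s4 h h4 hH hm p' fun c => d1.le ⟨d3, d2, c⟩
      have d8 := p'.sub_mem_UU d5
      obtain ⟨w, d9, d10⟩ := h.exists_hp_mem p'.nd d8.1 (s'.iso_UU d8) fun c =>
        d4 (Submodule.mem_span_singleton.2 ⟨_, (sub_eq_zero.1 c).symm⟩)
      have r' : Fr Φ y g _ w := ⟨p', d10, d8.1, d9, s'.hd⟩
      by_cases hb' : ∀ v ∈ UU Φ H y g, Φ.B (x - Φ.B g x • y) v = 0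
      · obtain ⟨z, hz, -⟩ := strong_of_b h h4 hH hm s' r' d8 hb'
        exact d1.le hz.1
      push Not at hb'
      obtain ⟨a, b, e1, -, e2⟩ := s'.c_sub r' d8 hb' (p'.sub_mem_UU d7)
      have e3 := congrArg (Φ.B w) e2
      rw [show α • x - Φ.B g (α • x) • y = α • (x - Φ.B g x • y) by rw [Φ.B_smul_right]; module,
        map_add, Φ.B_smul_right, Φ.B_smul_right, Φ.B_smul_right, d10.hfe, d10.ff] at e3
      exact d6 (by rw [show α = a by linear_combination e3, e1])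
  have hI := hH.trans Φ.EG_le_Iso
  obtain ⟨z, hz, -⟩ := key e₀ b1 b2 b3
  obtain ⟨f, p⟩ := h.exists_hp hz.1.2.1 hz.1.1
  obtain ⟨z', hz', c1⟩ := key f p.hf p.symm.ne_zero fun c =>
    one_ne_zero (p.hef.symm.trans (hz.perp h hI hA ⟨p.symm.ne_zero, p.hf, c⟩))
  have c2 := hz.perp h hI hA hz'.1
  have c3 : z' ∈ pp Φ ⊤ z f := mem_V1.2 ⟨c2, Φ.perp_symm c1⟩
  have c4 : ∀ v, Φ.B z v = 0 → Φ.B z' v = 0 → ∃ a b : F, v = a • z + b • z' := fun v d1 d2 => by
    obtain ⟨c, hc⟩ := Sm.mem_span_of_perp h p.nd (by have := p.finrank; omega) c3 hz'.1.1 hz'.1.2.1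
      (y := v - Φ.B f v • z) (mem_V1.2 ⟨by simp [d1, p.ee], by simp [p.hfe]⟩)
      (by simp [d2, Φ.perp_symm c2])
    exact ⟨Φ.B f v, c, by rw [← hc]; abel⟩
  have c5 : LinearIndependent F ![z', z] :=
    li_pair hz'.1.1 (not_mem_span_of_B (Φ.perp_symm c1) (p.hfe ▸ one_ne_zero))
  obtain ⟨y, y1, y2, y3⟩ : ∃ y ∈ Submodule.span F (Set.range ![z', z]), y ≠ 0 ∧ y ∉ AA Φ H := by
    by_contra hc
    push Not at hc
    have d1 := Set.ncard_le_ncard (s := (Submodule.span F (Set.range ![z', z]) : Set V) \ {0})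
      (t := AA Φ H) fun v hv => hc v hv.1 hv.2
    rw [Set.ncard_sdiff_singleton_of_mem (Submodule.zero_mem _)] at d1
    have d2 := card_submodule (Submodule.span F (Set.range ![z', z]))
    rw [finrank_span_eq_card c5, h.card_F, ← pow_mul] at d2
    exact absurd (d2.ge.trans_eq' rfl |> fun d3 => (Nat.sub_le_sub_right d3 1).trans d1) (not_le.2 hA)
  rw [Matrix.range_cons_cons_empty] at y1
  obtain ⟨a, b, rfl⟩ := Submodule.mem_span_pair.1 y1
  have y4 : ∀ c d : F, Φ.B (c • z + d • z') (a • z' + b • z) = 0 := fun c d => by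
    simp [c2, Φ.perp_symm c2, p.ee, Φ.B_self hz'.1.2.1]
  have y5 : Φ.Q (a • z' + b • z) = 0 := by rw [h.Q_eq, ← y4 b a, add_comm]
  have y6 : ∀ {x : V}, x ∈ AA Φ H → x ∉ Submodule.span F {a • z' + b • z} := fun {x} d1 d2 => by
    obtain ⟨t, rfl⟩ := Submodule.mem_span_singleton.1 d2
    exact y3 ⟨y2, y5, (inT_smul_iff (left_ne_zero_of_smul d1.1)).1 d1.2.2⟩
  have y7 := y4 1 0
  have y8 := y4 0 1
  simp only [one_smul, zero_smul, add_zero, zero_add] at y7 y8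
  generalize a • z' + b • z = y at *
  obtain ⟨g, p'⟩ := h.exists_hp y5 y2
  have d0 := p'.finrank
  obtain ⟨x, x1, x2, x3⟩ := h.exists_sing_B p'.nd (by omega) (u := z) (by
    by_contra hc
    push Not at hc
    obtain ⟨c, d, e1⟩ := eq_of_perp_V1 hc
    rw [e1] at y7
    simp only [Φ.bsimp, p'.ee, p'.hfe, mul_zero, zero_add, mul_one, Φ.σ_eq_zero] at y7
    exact y6 hz.1 (Submodule.mem_span_singleton.2 ⟨c, by rw [e1, y7, zero_smul, add_zero]⟩)) 1
  have x0 : x ≠ 0 := by rintro rfl; simp at x3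
  obtain ⟨w, hw, w1⟩ := key x x2 x0 fun c =>
    one_ne_zero (x3.symm.trans (hz.perp h hI hA ⟨x0, x2, c⟩))
  obtain ⟨c, d, e1⟩ := c4 w (hz.perp h hI hA hw.1) (hz'.perp h hI hA hw.1)
  obtain ⟨c', d', e2⟩ := c4 y y7 y8
  have e3 := (mem_V1.1 x1).1
  rw [e1] at w1
  rw [e2] at e3
  simp only [Φ.bsimp, x3] at w1 e3
  have e4 : c * d' - d * c' = 0 := by
    rw [← Φ.σ_eq_zero]; simp only [Φ.bsimp]; linear_combination Φ.σ d' * w1 - Φ.σ d * e3
  have e5 : d' ≠ 0 := by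
    rintro rfl
    have e6 : c' = 0 := by simpa using e3
    exact y2 (by rw [e2, e6, zero_smul, zero_smul, add_zero])
  refine y6 hw.1 (Submodule.mem_span_singleton.2 ⟨d / d', ?_⟩)
  rw [e1, e2, show c = d * c' / d' by field_simp; linear_combination e4]
  match_scalars <;> field_simp

end Main

theorem Fr.index_line (r : Fr Φ e f u u') (h : Hm Φ q) :
    (stab (Submodule.span F {e, u}) ⊓ Φ.EG).relIndex Φ.EG ≤ (q + 1) * (q ^ 3 + 1) := by
  have := finite_equiv (F := F) (V := V)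
  have : Finite (Submodule F V) := Finite.of_injective _ SetLike.coe_injective
  have p := r.p
  have h4 : finrank F V = 4 := by have := p.finrank; have := r.hd; omega
  set P := stab (Submodule.span F {e, u}) ⊓ Φ.EG with hP
  have mk : ∀ {g : V ≃ₗ[F] V}, g ∈ Φ.EG → ∀ {a b c d : F}, g e = a • e + b • u →
      g u = c • e + d • u → g ∈ P := fun hg a b c d h1 h2 => ⟨mem_stab_of_mapsTo fun v hv => by
    obtain ⟨x, y, rfl⟩ := Submodule.mem_span_pair.1 hv
    exact Submodule.mem_span_pair.2 ⟨x * a + y * c, x * b + y * d, by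
      rw [map_add, map_smul, map_smul, h1, h2]; module⟩, hg⟩
  have a1 : P.relIndex (Sx Φ e) ≤ q + 1 := by
    refine (relIndex_le_ncard P (Sx Φ e) (fun g => Submodule.span F {act Φ e f g u})
      (insert (Submodule.span F {u'}) ((fun c => Submodule.span F {u + c • u'}) ''
        {x | x + Φ.σ x = 0})) (fun g hg => ?_) fun g hg g' hg' e1 => ?_).trans
      ((Set.ncard_insert_le _ _).trans (Nat.add_le_add_right
        ((Set.ncard_image_le (Set.toFinite _)).trans_eq (h.ncard_trace (map_zero _))) 1))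
    · obtain ⟨g1, g2⟩ := mem_Sx.1 hg
      have b1 := r.decomp h (p.act_mem (Φ.EG_le_Iso g2) (one_fix g1) r.eu)
      have b2 := h.Q_act p (Φ.EG_le_Iso g2) (one_fix g1) r.eu
      have b3 := p.act_ne_zero (one_fix g1) r.hu r.p'.ne_zero
      generalize Φ.B u' _ = x at b1
      generalize Φ.B u _ = y at b1
      rw [b1] at b2 b3 ⊢
      by_cases hx : x = 0
      · rw [hx, zero_smul, zero_add] at b3 ⊢
        exact Or.inl (Submodule.span_singleton_smul_eq (IsUnit.mk0 _ (left_ne_zero_of_smul b3)) _)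
      refine Or.inr ⟨y / x, ?_, ?_⟩
      · rw [h.Q_eq, r.p'.he] at b2
        simp only [Φ.bsimp, r.p'.ee, r.p'.ff, r.p'.hef, r.p'.hfe] at b2
        have := Φ.σ_ne hx
        simp only [Set.mem_ofPred_eq, Φ.bsimp]
        field_simp
        linear_combination b2
      · rw [show x • u + y • u' = x • (u + (y / x) • u') by match_scalars <;> field_simp]
        exact (Submodule.span_singleton_smul_eq (IsUnit.mk0 _ hx) _).symm
    · obtain ⟨g1, g2⟩ := mem_Sx.1 hg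
      obtain ⟨g1', g2'⟩ := mem_Sx.1 hg'
      obtain ⟨t, ht⟩ := Submodule.mem_span_singleton.1 (e1.ge (Submodule.mem_span_singleton_self _))
      have b1 : (g⁻¹ * g') e = e := by rw [mul_app, g1', inv_fix g1]
      have b2 : act Φ e f (g⁻¹ * g') u = t • u := by
        rw [p.act_mul₁ (inv_fix g1) g1', ← ht, HP.act_smul, p.act_inv_act (one_fix g1) r.hu]
      rw [p.act_eq (one_fix b1), map_one, one_smul, sub_eq_iff_eq_add, add_comm] at b2
      exact mk (Φ.EG.mul_mem (Φ.EG.inv_mem g2) g2') (a := 1) (b := 0) (by simp [b1]) b2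
  have a2 : q ^ 4 - 1 ≤ ((fun g => g e) '' ((P ⊓ Φ.EG : Subgroup _) : Set (V ≃ₗ[F] V))).ncard := by
    have c5 : LinearIndependent F ![e, u] :=
      li_pair p.ne_zero (not_mem_span_of_B r.u'e (r.p'.hfe ▸ one_ne_zero))
    have d2 := card_submodule (Submodule.span F (Set.range ![e, u]))
    rw [finrank_span_eq_card c5, h.card_F, ← pow_mul, Matrix.range_cons_cons_empty] at d2
    rw [show q ^ 4 = (Submodule.span F {e, u} : Set V).ncard from d2.symm,
      ← Set.ncard_sdiff_singleton_of_mem (Submodule.zero_mem _)]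
    refine Set.ncard_le_ncard ?_
    rintro v ⟨v1, v2⟩
    obtain ⟨α, β, rfl⟩ := Submodule.mem_span_pair.1 v1
    have key : ∀ γ : F, γ ≠ 0 → β = γ ∨ α ≠ 0 → ∃ g ∈ P, g e = α • e + β • u := fun γ b1 b3 =>
      orb_gen P (fun _ => True) (fun c _ => by
          have hv : Φ.Valid e ((-Φ.σ c) • u') 0 :=
            valid_zero p.he (by simp [r.eu']) (Φ.Q_smul_zero r.p'.hf _)
          have b4 : hv.eich u = u + c • e := by
            rw [hv.eich_apply, h.ef_eq]; simp [r.eu, r.p'.hfe, Φ.invol]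
          exact ⟨_, mk hv.eich_mem (a := 1) (b := 0) (c := c) (d := 1)
            (hv.ef_self.trans (by simp)) (b4.trans (by module)), hv.ef_self, b4⟩)
        (fun c _ => by
          have hv : Φ.Valid u ((-Φ.σ c) • f) 0 :=
            valid_zero r.p'.he (by simp [r.uf]) (Φ.Q_smul_zero p.hf _)
          have b4 : hv.eich e = e + c • u := by
            rw [hv.eich_apply, h.ef_eq]; simp [r.ue, p.hfe, Φ.invol]
          exact ⟨_, mk hv.eich_mem (a := 1) (b := c) (c := 0) (d := 1) (b4.trans (by module))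
            (hv.ef_self.trans (by simp)), b4, hv.ef_self⟩)
        b1 trivial trivial (b3.imp id fun b4 => ⟨b4, trivial⟩)
    obtain ⟨g, hg, e1⟩ : ∃ g ∈ P, g e = α • e + β • u := by
      by_cases b1 : β = 0
      · exact key 1 one_ne_zero (Or.inr fun b2 => v2 (by simp [b1, b2]))
      · exact key β b1 (Or.inl rfl)
    exact ⟨g, ⟨hg, hg.2⟩, e1⟩
  have a3 := idx_eq P Φ.EG (fun g => g e) fun k _ g _ g' _ e1 => by simp only [mul_app, e1]
  have a4 : stabF Φ.EG (fun g => g e) (fun k _ g _ g' _ e1 => by simp only [mul_app, e1]) =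
      Sx Φ e := Subgroup.ext fun g => and_comm.trans mem_Sx.symm
  have a5 : ((fun g => g e) '' (Φ.EG : Set (V ≃ₗ[F] V))).ncard ≤ ns Φ := by
    refine Set.ncard_le_ncard ?_
    rintro _ ⟨g, hg, rfl⟩
    exact ⟨by simpa using p.ne_zero, by rw [Iso.Q (Φ.EG_le_Iso hg), p.he]⟩
  rw [a4] at a3
  rw [h.ns_eq, h4, nI, if_pos (by decide)] at a5
  refine Nat.le_of_mul_le_mul_right (c := q ^ 4 - 1) ?_
    (Nat.sub_pos_of_lt (Nat.one_lt_pow (by omega) h.two_le))
  calc _ ≤ _ := Nat.mul_le_mul_left _ a2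
    _ = _ := a3.symm
    _ ≤ (q + 1) * ((q ^ 4 - 1) * (q ^ (4 - 1) + 1)) := Nat.mul_le_mul a1 a5
    _ = _ := by ring

theorem Hm.transfer_four (h : Hm Φ q) (h4 : finrank F V = 4) {G : Type*} [Group G]
    (ι : G →* (V ≃ₗ[F] V)) (hι : Function.Injective ι) (hE : ι.range = Φ.EG) :
    (∀ K : Subgroup (G ⧸ Subgroup.center G), K ≠ ⊤ → (q + 1) * (q ^ 3 + 1) ≤ K.index) ∧
      ∃ K : Subgroup (G ⧸ Subgroup.center G), K.index = (q + 1) * (q ^ 3 + 1) := by
  obtain ⟨e, -, e0, e1⟩ := h.exists_sing (X := ⊤) (by rw [finrank_top]; omega)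
  obtain ⟨f, p⟩ := h.exists_hp e1 e0
  have h2 := p.finrank
  obtain ⟨u, hu, u0, u1⟩ := h.exists_sing (X := pp Φ ⊤ e f) (by omega)
  obtain ⟨u', hu', p'⟩ := h.exists_hp_mem p.nd hu u1 u0
  have r : Fr Φ e f u u' := ⟨p, p', hu, hu', by omega⟩
  refine transfer ι hι hE (fun H h1 h2 => h.four h4 h1 h2)
    (P := stab (Submodule.span F {e, u}) ⊓ Φ.EG) (fun z hz hc => ⟨mem_stab_of_mapsTo ?_, hz⟩)
    (le_antisymm (r.index_line h) (h.four h4 inf_le_right fun c => ?_))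
  · obtain ⟨s, hs⟩ := (mem_Px.1 (central_mem_Px_sing (by omega) e1 e0 hz hc)).1
    obtain ⟨t, ht⟩ := (mem_Px.1 (central_mem_Px_sing (by omega) u1 u0 hz hc)).1
    intro v hv
    obtain ⟨x, y, rfl⟩ := Submodule.mem_span_pair.1 hv
    exact Submodule.mem_span_pair.2 ⟨x * s, y * t, by
      rw [map_add, map_smul, map_smul, hs, ht]; module⟩
  · obtain ⟨g, hg, e2⟩ := h.exists_move (by omega) e1 e0 p.hf p.symm.ne_zero
    obtain ⟨x, y, e3⟩ := Submodule.mem_span_pair.1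
      (stab_apply (c hg).1 (Submodule.subset_span (Set.mem_insert _ _)))
    have := congrArg (Φ.B e) e3
    simp [e2, p.ee, p.hef, r.eu] at this

end Cfsg.Agent.Class.MinDegU
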